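import Cfsg.Agent.KFacts.MM.El
import Cfsg.Agent.LThreeCo1T8.Mono

/-!
# A Sylow 3-subgroup of `M24` (helper819)

`exists_S` : a subgroup of order 27 with a central element `a` such that every element `≠ 1` is conjugate in `M24` to `a` or
to the element `sig` of type `3^8`.
-/

set_option autoImplicit false
set_option maxRecDepth 10000

namespace Cfsg.Agent.H819.Syl3

open Cfsg Cfsg.Agent.KFacts.MM.El Cfsg.Agent.SporadicA.GolayBase Cfsg.Agent.SporadicA.GolayPerm
open Cfsg.Agent.LThreeCo1T8.Mono (sig)
open Cfsg.Agent.LThreeCo1T8.Perm (sg sg_mem)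

/-- the central element -/
def A : ℕ := 776506090442204081354442893333439136

@[inherit_doc A] def B : ℕ := 70231157728463878748255299200172288

@[inherit_doc A] def C : ℕ := 973620492572514297797829072921895126

/-- the element of type `3^8` -/
def S : ℕ := 15909574972934138282974354882288353

/-- the elements `≠ 1`, their class and a conjugating element -/
def T : List (List ℕ × ℕ × ℕ) := [
  ([C], A, 736277257860741598605005387949777968),
  ([C, C], A, 594084890031971466923062488748787749),
  ([B], A, 278237923407280741955791187577478189),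
  ([B, C], S, 25116639272237219082997550699404327),
  ([B, C, C], S, 22540257964554818176699282129403946),
  ([B, B], A, 901330013112839483686878558722604081),
  ([B, B, C], S, 671577544416650654405196434413649962),
  ([B, B, C, C], S, 507998647172772142451112447136762931),
  ([A], A, 984818244535754528103549039458486304),
  ([A, C], A, 837836089198298204427815695129024937),
  ([A, C, C], A, 648011900705307207740933528291409961),
  ([A, B], A, 853299451499001663575781926295480374),
  ([A, B, C], S, 143239846613991574923282911624441907),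
  ([A, B, C, C], S, 131568512952410772179484777795705905),
  ([A, B, B], A, 313286641100823318767363970854000685),
  ([A, B, B, C], S, 968826670705908735105800717180341297),
  ([A, B, B, C, C], S, 689743324295560929581071864697030702),
  ([A, A], A, 683034529225508988185221380175995953),
  ([A, A, C], A, 461691208994261405600795493502769192),
  ([A, A, C, C], A, 387396860407820975288419756025747892),
  ([A, A, B], A, 640417170650864875047523939697022001),
  ([A, A, B, C], S, 92628814699440089139843879692648494),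
  ([A, A, B, C, C], S, 262666672601075174750630712320741413),
  ([A, A, B, B], A, 432722761860634039699741613260754998),
  ([A, A, B, B, C], S, 853290032606293002232306795303508005),
  ([A, A, B, B, C, C], S, 974008628434210021207318269992697895)]

/-- the 27 elements -/
def L : List (List ℕ) := [] :: T.map Prod.fst

theorem ok_T : (T.all fun t => okl t.1 && (isPerm t.2.1 && isPerm t.2.2 && isAut t.2.2 &&
    (Nat.beq t.2.1 A || Nat.beq t.2.1 S) && weq (t.2.2 :: t.1) [t.2.1, t.2.2])) = true := by
  decide +kernel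

theorem ok_gen : (isPerm A && isPerm B && isPerm C && isPerm S && isAut A && isAut B && isAut C && isAut S) = true := by
  decide +kernel

theorem dist_L : dist L = true := by decide +kernel

/-- closure under left multiplication by the generators -/
theorem mul_L : (L.all fun l => [A, B, C].all fun g => L.any fun m => weq (g :: l) m) = true := by
  decide +kernel

theorem comm_L : (L.all fun l => weq (A :: l) (l ++ [A])) = true := by decide +kernel

theorem cube_L : (L.all fun l => weq (l ++ l ++ l) []) = true := by decide +kernel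

theorem letters : (L.all fun l => l.all fun g => Nat.beq g A || (Nat.beq g B || Nat.beq g C)) = true := by
  decide +kernel

theorem sg_val : ∀ p : GolayPt, papp S (idx p) = idx (sg p) := by decide +kernel

/-! ### The group -/

theorem okABC {g : ℕ} (hg : g ∈ [A, B, C]) : isPerm g = true ∧ isAut g = true := by
  have h := ok_gen
  simp only [Bool.and_eq_true] at h
  obtain ⟨⟨⟨⟨⟨⟨⟨h1, h2⟩, h3⟩, h4⟩, h5⟩, h6⟩, h7⟩, h8⟩ := h
  simp only [List.mem_cons, List.not_mem_nil, or_false] at hg
  rcases hg with rfl | rfl | rfl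
  · exact ⟨h1, h5⟩
  · exact ⟨h2, h6⟩
  · exact ⟨h3, h7⟩

theorem mem_letters {l : List ℕ} (hl : l ∈ L) {g : ℕ} (hg : g ∈ l) : g ∈ [A, B, C] := by
  have h := List.all_eq_true.1 (List.all_eq_true.1 letters l hl) g hg
  simp only [Bool.or_eq_true] at h
  simp only [List.mem_cons, List.not_mem_nil, or_false]
  rcases h with h | h | h
  · exact Or.inl (Nat.eq_of_beq_eq_true h)
  · exact Or.inr (Or.inl (Nat.eq_of_beq_eq_true h))
  · exact Or.inr (Or.inr (Nat.eq_of_beq_eq_true h))

theorem okl_of {l : List ℕ} (h : ∀ g ∈ l, g ∈ [A, B, C]) : okl l = true := by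
  unfold okl
  rw [List.all_eq_true]
  exact fun g hg => (okABC (h g hg)).1

theorem okl_L {l : List ℕ} (hl : l ∈ L) : okl l = true := okl_of fun _ hg => mem_letters hl hg

theorem pr_mem_M24 {l : List ℕ} (h : ∀ g ∈ l, g ∈ [A, B, C]) : pr l ∈ M24 := by
  induction l with
  | nil => rw [pr_nil]; exact one_mem _
  | cons g l ih =>
    rw [pr_cons]
    have h1 := okABC (h g List.mem_cons_self)
    exact mul_mem (pm_mem_M24 h1.1 h1.2) (ih fun g hg => h g (List.mem_cons_of_mem _ hg))

theorem okl_cons' {g : ℕ} {l : List ℕ} (hg : isPerm g = true) (hl : okl l = true) : okl (g :: l) = true := by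
  unfold okl at *
  rw [List.all_cons, hg, hl]
  rfl

theorem okl_append {l m : List ℕ} (hl : okl l = true) (hm : okl m = true) : okl (l ++ m) = true := by
  unfold okl at *
  rw [List.all_append, hl, hm]
  rfl

/-- left multiplication by a generator -/
theorem gen_mul {g : ℕ} (hg : g ∈ [A, B, C]) {l : List ℕ} (hl : l ∈ L) : ∃ m ∈ L, pr m = pm g * pr l := by
  have h := List.any_eq_true.1 (List.all_eq_true.1 (List.all_eq_true.1 mul_L l hl) g hg)
  obtain ⟨m, hm, h⟩ := h
  refine ⟨m, hm, ?_⟩
  rw [← pr_cons]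
  exact (pr_of_weq (okl_cons' (okABC hg).1 (okl_L hl)) (okl_L hm) h).symm

/-- the group of order 27 -/
noncomputable def SP : Subgroup (Equiv.Perm GolayPt) where
  carrier := {g | ∃ l ∈ L, pr l = g}
  one_mem' := ⟨[], List.mem_cons_self, pr_nil⟩
  mul_mem' := by
    rintro _ _ ⟨l, hl, rfl⟩ ⟨m, hm, rfl⟩
    have h : ∀ l : List ℕ, (∀ g ∈ l, g ∈ [A, B, C]) → ∃ k ∈ L, pr k = pr l * pr m := by
      intro l
      induction l with
      | nil => intro _; exact ⟨m, hm, by rw [pr_nil, one_mul]⟩
      | cons g l ih =>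
        intro h
        obtain ⟨k, hk, h1⟩ := ih fun g hg => h g (List.mem_cons_of_mem _ hg)
        obtain ⟨k', hk', h2⟩ := gen_mul (h g List.mem_cons_self) hk
        exact ⟨k', hk', by rw [h2, h1, pr_cons, mul_assoc]⟩
    exact h l fun g hg => mem_letters hl hg
  inv_mem' := by
    rintro _ ⟨l, hl, rfl⟩
    have h1 := okl_L hl
    have h2 := pr_of_weq (okl_append (okl_append h1 h1) h1) (by rfl) (List.all_eq_true.1 cube_L l hl)
    rw [pr_append, pr_append, pr_nil] at h2
    have h3 : (pr l)⁻¹ = pr l * pr l := (eq_inv_of_mul_eq_one_left h2).symm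
    rw [h3]
    have h : ∀ l' : List ℕ, (∀ g ∈ l', g ∈ [A, B, C]) → ∃ k ∈ L, pr k = pr l' * pr l := by
      intro l'
      induction l' with
      | nil => intro _; exact ⟨l, hl, by rw [pr_nil, one_mul]⟩
      | cons g l' ih =>
        intro h
        obtain ⟨k, hk, h1⟩ := ih fun g hg => h g (List.mem_cons_of_mem _ hg)
        obtain ⟨k', hk', h2⟩ := gen_mul (h g List.mem_cons_self) hk
        exact ⟨k', hk', by rw [h2, h1, pr_cons, mul_assoc]⟩
    exact h l fun g hg => mem_letters hl hg

theorem mem_SP {g : Equiv.Perm GolayPt} : g ∈ SP ↔ ∃ l ∈ L, pr l = g := Iff.rfl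

theorem SP_le : SP ≤ M24 := by
  rintro _ ⟨l, hl, rfl⟩
  exact pr_mem_M24 fun g hg => mem_letters hl hg

theorem card_SP : Nat.card ↥SP = 27 :=
  card_of_list (fun _ hl => okl_L hl) dist_L (SP : Set (Equiv.Perm GolayPt)) fun _ => mem_SP

theorem A_mem : pm A ∈ SP := by
  obtain ⟨m, hm, h⟩ := gen_mul (g := A) List.mem_cons_self (l := []) List.mem_cons_self
  exact ⟨m, hm, by rw [h, pr_nil, mul_one]⟩

theorem A_comm {g : Equiv.Perm GolayPt} (hg : g ∈ SP) : pm A * g = g * pm A := by
  obtain ⟨l, hl, rfl⟩ := hg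
  have hA : isPerm A = true := (okABC List.mem_cons_self).1
  have h1 := okl_L hl
  have h2 : okl [A] = true := okl_cons' hA (by rfl)
  have h := pr_of_weq (okl_cons' hA h1) (okl_append h1 h2) (List.all_eq_true.1 comm_L l hl)
  rwa [pr_cons, pr_append, pr_one] at h

theorem pm_S : pm S = sg := by
  have h := ok_gen
  simp only [Bool.and_eq_true] at h
  have h1 : isPerm S = true := h.1.1.1.1.2
  ext1 p
  rw [pm_eq h1, permOf_apply, sg_val, pt_idx]

theorem conj_SP {g : Equiv.Perm GolayPt} (hg : g ∈ SP) :
    g = 1 ∨ ∃ k ∈ M24, k * g = pm A * k ∨ k * g = sg * k := by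
  obtain ⟨l, hl, rfl⟩ := hg
  rcases List.mem_cons.1 hl with rfl | hl'
  · exact Or.inl pr_nil
  · obtain ⟨⟨l', t, k⟩, ht, rfl⟩ := List.mem_map.1 hl'
    have h := List.all_eq_true.1 ok_T _ ht
    simp only [Bool.and_eq_true, Bool.or_eq_true] at h
    obtain ⟨h1, ⟨⟨⟨h2, h3⟩, h4⟩, h5⟩, h6⟩ := h
    right
    refine ⟨pm k, pm_mem_M24 h3 h4, ?_⟩
    have h7 := pr_of_weq (okl_cons' h3 h1) (okl_cons' h2 (okl_cons' h3 (by rfl))) h6
    rw [pr_cons, pr_cons, pr_one] at h7
    rcases h5 with h5 | h5
    · left
      rw [h7, Nat.eq_of_beq_eq_true h5]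
    · right
      rw [h7, Nat.eq_of_beq_eq_true h5, pm_S]

/-- **A Sylow 3-subgroup of `M24`.** -/
theorem exists_S : ∃ (S : Subgroup M24) (a : M24), Nat.card ↥S = 27 ∧ a ∈ S ∧ (∀ s ∈ S, a * s = s * a) ∧
    ∀ s ∈ S, s = 1 ∨ ∃ g : M24, g * s * g⁻¹ = a ∨ g * s * g⁻¹ = sig := by
  refine ⟨SP.subgroupOf M24, ⟨pm A, SP_le A_mem⟩, ?_, A_mem, fun s hs => Subtype.ext (A_comm hs), ?_⟩
  · rw [Nat.card_congr (Subgroup.subgroupOfEquivOfLe SP_le).toEquiv, card_SP]
  · intro s hs
    rcases conj_SP hs with h | ⟨k, hk, h⟩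
    · exact Or.inl (Subtype.ext h)
    · refine Or.inr ⟨⟨k, hk⟩, ?_⟩
      rcases h with h | h
      · left
        rw [mul_inv_eq_iff_eq_mul]
        exact Subtype.ext h
      · right
        rw [mul_inv_eq_iff_eq_mul]
        exact Subtype.ext h

end Cfsg.Agent.H819.Syl3
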