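import Cfsg.Agent.H819.Fus
import Cfsg.Agent.H819.Syl3
import Cfsg.Agent.H819.Five
import Cfsg.Agent.LThreeMB.CEight

/-!
# The centralizer of a subgroup of order 3 of `C(z, y)`, not 3-central, is of Thompson type (helper819)
-/

set_option autoImplicit false

namespace Cfsg.Agent.H819.Eight

open Cfsg Cfsg.Spor Cfsg.Agent.MonsterU Cfsg.Agent.MonsterU.Lam2 Cfsg.Agent.MonsterU.Ch
open Cfsg.Agent.Co2Type.Quad Cfsg.Agent.H819.Base Cfsg.Agent.H819.Frame
open Cfsg.Agent.LThreeMB (fr XX Zx Zx_le_center self mk Faith tt PB mem_PB)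
open Cfsg.Agent.MonsterU.CoFrameL2 (f0 F)
open Cfsg.Agent.LThreeCo1T8.Mono (sig)
open Cfsg.Agent.LThreeCo1T8.Main (xx)
open Cfsg.Agent.SporadicA.Co0Mono (permCo0 signCo0_zero)
open Cfsg.Agent.SporadicA.Co1Simple (perm_mem_N)
open Cfsg.Agent.CoOneType.CoOneE (pr)
open Subgroup (centralizer zpowers mem_centralizer_singleton_iff)

/-! ### Elements central in a Sylow 3-subgroup -/

/-- `x` is central in a Sylow 3-subgroup -/
def Cen {L : Type*} [Group L] (x : L) : Prop :=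
  ∃ R : Sylow 3 L, x ∈ (R : Subgroup L) ∧ ∀ r ∈ (R : Subgroup L), x * r = r * x

theorem Cen.of_equiv {L : Type*} [Group L] [Finite L] (α : L ≃* L) {x : L} (h : Cen (α x)) : Cen x := by
  obtain ⟨R, hR, hc⟩ := h
  have : Fact (Nat.Prime 3) := ⟨by norm_num⟩
  have hcard : Nat.card ↥((R : Subgroup L).comap α.toMonoidHom) = 3 ^ (Nat.card L).factorization 3 := by
    rw [← R.card_eq_multiplicity]
    have h1 : (R : Subgroup L).comap α.toMonoidHom = (R : Subgroup L).map α.symm.toMonoidHom :=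
      (Subgroup.map_equiv_eq_comap_symm' α.symm (R : Subgroup L)).symm
    rw [h1]
    exact (Nat.card_congr ((R : Subgroup L).equivMapOfInjective _ α.symm.injective).toEquiv).symm
  refine ⟨Sylow.ofCard _ hcard, hR, fun r hr => α.injective ?_⟩
  rw [map_mul, map_mul]
  exact hc _ hr

/-! ### Elements of order 3 of `F` -/

/-- `M24 → F` -/
def j : M24 →* ↥F where
  toFun σ := ⟨pr (permCo0 σ), ⟨permCo0 σ, perm_mem_N σ, rfl⟩⟩
  map_one' := Subtype.ext (by show pr (permCo0 1) = 1; rw [map_one, map_one])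
  map_mul' a b := Subtype.ext (by show pr (permCo0 (a * b)) = pr (permCo0 a) * pr (permCo0 b); rw [map_mul, map_mul])

theorem j_injective : Function.Injective j := by
  intro a b hab
  have h1 : pr (permCo0 a) = pr (permCo0 b) := congrArg Subtype.val hab
  exact (CoFrameF.pr_sp_eq (c := 0) (d := 0) (by
    rw [signCo0_zero, one_mul, one_mul, h1])).1

theorem j_sig : ((j sig : ↥F) : Co1) = xx := rfl

theorem card_F_three : (Nat.card ↥F).factorization 3 = 3 := by
  rw [card_F]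
  have h1 : (2 ^ 21 * 3 ^ 3 * 5 * 7 * 11 * 23 : ℕ) = 3 ^ 3 * (2 ^ 21 * 5 * 7 * 11 * 23) := by norm_num
  rw [h1, Nat.factorization_mul (by norm_num) (by norm_num), Finsupp.add_apply, Nat.Prime.factorization_pow (by norm_num),
    Finsupp.single_eq_same, Nat.factorization_eq_zero_of_not_dvd (by norm_num)]

/-- **Elements of order 3 of `F`.** -/
theorem exists_F {x : ↥F} (hx : x ^ 3 = 1) (hx1 : x ≠ 1) :
    (∃ S : Subgroup ↥F, Nat.card ↥S = 3 ^ (Nat.card ↥F).factorization 3 ∧ x ∈ S ∧ ∀ s ∈ S, x * s = s * x) ∨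
    ∃ f : ↥F, f * x * f⁻¹ = j sig := by
  obtain ⟨S, a, hcard, ha, hac, hS⟩ := Syl3.exists_S
  have hSF : Nat.card ↥(S.map j) = 3 ^ (Nat.card ↥F).factorization 3 := by
    rw [← Nat.card_congr (S.equivMapOfInjective _ j_injective).toEquiv, hcard, card_F_three]
    norm_num
  obtain ⟨f, s, hs, hf⟩ := SylLem.exists_conj_mem (by norm_num) hSF (x := x) (n := 1) (by rw [pow_one, hx])
  rcases hS s hs with rfl | ⟨g, hg | hg⟩
  · exfalso
    apply hx1
    rw [map_one] at hf
    calc x = f⁻¹ * (f * x * f⁻¹) * f := by group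
      _ = 1 := by rw [← hf]; group
  · left
    have hgx : (j g * f) * x * (j g * f)⁻¹ = j a := by
      calc (j g * f) * x * (j g * f)⁻¹ = j g * (f * x * f⁻¹) * (j g)⁻¹ := by group
        _ = j a := by rw [← hf, ← map_mul, ← map_inv, ← map_mul, hg]
    refine ⟨(S.map j).comap (MulAut.conj (j g * f)).toMonoidHom, ?_, ?_, ?_⟩
    · rw [← hSF]
      have h1 : (S.map j).comap (MulAut.conj (j g * f)).toMonoidHom =
          (S.map j).map (MulAut.conj (j g * f)).symm.toMonoidHom :=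
        (Subgroup.map_equiv_eq_comap_symm' (MulAut.conj (j g * f)).symm (S.map j)).symm
      rw [h1]
      exact (Nat.card_congr ((S.map j).equivMapOfInjective _ (MulAut.conj (j g * f)).symm.injective).toEquiv).symm
    · exact ⟨a, ha, hgx.symm⟩
    · rintro r ⟨s', hs', hr⟩
      have hr' : j s' = (j g * f) * r * (j g * f)⁻¹ := hr
      have h2 : (j g * f) * x * (j g * f)⁻¹ * ((j g * f) * r * (j g * f)⁻¹) =
          ((j g * f) * r * (j g * f)⁻¹) * ((j g * f) * x * (j g * f)⁻¹) := by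
        rw [hgx, ← hr', ← map_mul, ← map_mul, hac s' hs']
      calc x * r = (j g * f)⁻¹ * ((j g * f) * x * (j g * f)⁻¹ * ((j g * f) * r * (j g * f)⁻¹)) * (j g * f) := by group
        _ = r * x := by rw [h2]; group
  · right
    refine ⟨j g * f, ?_⟩
    calc (j g * f) * x * (j g * f)⁻¹ = j g * (f * x * f⁻¹) * (j g)⁻¹ := by group
      _ = j sig := by rw [← hf, ← map_mul, ← map_inv, ← map_mul, hg]

/-! ### Lifting a conjugation -/

/-- elements of order `p` with the same image modulo a normal `p'`-subgroup -/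
theorem exists_lift {L F : Type*} [Group L] [Group F] [Finite L] [Finite F] {p : ℕ} (hp : p.Prime) (φ : L →* F)
    (hk : ¬ p ∣ Nat.card ↥φ.ker) {x u : L} (hx : orderOf x = p) (hx1 : φ x ≠ 1) (hu : u ^ p = 1) (hxu : φ u = φ x) :
    ∃ (c : L) (i : ℤ), c * u * c⁻¹ = x ^ i := by
  have : Fact p.Prime := ⟨hp⟩
  let M : Subgroup L := (zpowers (φ x)).comap φ
  let ψ : ↥M →* ↥(zpowers (φ x)) := φ.subgroupComap (zpowers (φ x))
  have hψ : Function.Surjective ψ := by
    rintro ⟨_, i, rfl⟩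
    exact ⟨⟨x ^ i, ⟨i, (map_zpow φ x i).symm⟩⟩, Subtype.ext (map_zpow φ x i)⟩
  have hψk : ¬ p ∣ Nat.card ↥ψ.ker := by
    intro h
    apply hk
    refine h.trans ?_
    let g : ↥ψ.ker →* ↥φ.ker :=
      { toFun := fun g => ⟨((g : ↥M) : L), by
          rw [MonoidHom.mem_ker]
          exact congrArg Subtype.val g.2⟩
        map_one' := rfl
        map_mul' := fun _ _ => rfl }
    refine Subgroup.card_dvd_of_injective g ?_
    intro a b hab
    apply Subtype.ext
    apply Subtype.ext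
    exact congrArg (fun g : ↥φ.ker => (g : L)) hab
  have hxM : x ∈ M := Subgroup.mem_zpowers (φ x)
  have huM : u ∈ M := by
    show φ u ∈ zpowers (φ x)
    rw [hxu]
    exact Subgroup.mem_zpowers (φ x)
  have hφx : orderOf (φ x) = p := by
    apply orderOf_eq_prime
    · rw [← map_pow, ← hx, pow_orderOf_eq_one, map_one]
    · exact hx1
  have hS : Nat.card ↥(zpowers (⟨x, hxM⟩ : ↥M)) = p ^ (Nat.card ↥M).factorization p := by
    rw [SylLem.factorization_eq ψ hψ hψk, Nat.card_zpowers, Nat.card_zpowers, hφx, hp.factorization_self, pow_one,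
      Subgroup.orderOf_mk, hx]
  obtain ⟨c, hc⟩ := SylLem.exists_conj_mem hp hS (x := (⟨u, huM⟩ : ↥M)) (n := 1)
    (Subtype.ext (by show u ^ p ^ 1 = 1; rw [pow_one, hu]))
  obtain ⟨i, hi⟩ := Subgroup.mem_zpowers_iff.1 hc
  exact ⟨c, i, (congrArg Subtype.val hi).symm⟩

/-! ### The group `C(xx)/⟨xx⟩` -/

instance finC : Finite Spor.Co1 := MFiveHN.Cent.finCo1

theorem equiv_xx : Nonempty (XX xx ≃* ↥(alternatingGroup (Fin 9))) := by
  obtain ⟨e⟩ := LThreeMB.CEight.exists_XX LThreeCo1T8.Main.AA_le LThreeCo1T8.Main.inf_eq LThreeCo1T8.Main.sup_eq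
  obtain ⟨f⟩ := LThreeCo1T8.Main.nonempty_equiv
  exact ⟨e.trans f⟩

theorem core_xx : ∀ N : Subgroup (XX xx), N.Normal → IsPGroup 2 ↥N → N = ⊥ := by
  intro N hN h2
  obtain ⟨e⟩ := equiv_xx
  have hs : IsSimpleGroup ↥(alternatingGroup (Fin 9)) := alternatingGroup.isSimpleGroup (by simp)
  have hs' : IsSimpleGroup (XX xx) := e.isSimpleGroup
  rcases hN.eq_bot_or_eq_top with h | h
  · exact h
  · exfalso
    have hfin : Finite (XX xx) := Quotient.finite _
    obtain ⟨n, hn⟩ := IsPGroup.iff_card.1 h2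
    rw [h, Subgroup.card_top, Nat.card_congr e.toEquiv, nat_card_alternatingGroup] at hn
    have h3 : (3 : ℕ) ∣ 2 ^ n := by
      rw [← hn, Nat.card_eq_fintype_card, Fintype.card_fin]
      decide
    have h4 := Nat.Prime.dvd_of_dvd_pow (by norm_num) h3
    norm_num at h4

theorem facts (s : Co1) (hs : s = xx) : Faith s ∧ fr s = 2 ^ (2 * 4) ∧ Nonempty (XX s ≃* ↥(alternatingGroup (Fin 9))) ∧
    ∀ N : Subgroup (XX s), N.Normal → IsPGroup 2 ↥N → N = ⊥ := by
  subst hs
  exact ⟨LThreeMB.CEight.faith, LThreeMB.CEight.fr_xx, equiv_xx, core_xx⟩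

theorem th_of_zx {X : Type*} [Group X] (x : X) (C : Subgroup X) (hC : C = centralizer ({x} : Set X)) (B : Subgroup X)
    (hB : B = zpowers x) (hX : IsOfThompsonType (XX x)) [hn : (B.subgroupOf C).Normal] :
    IsOfThompsonType (↥C ⧸ B.subgroupOf C) := by
  subst hC
  have h1 : B.subgroupOf (centralizer ({x} : Set X)) = Zx x := by
    rw [hB]
    ext g
    rw [Subgroup.mem_subgroupOf, Zx, Subgroup.mem_zpowers_iff, Subgroup.mem_zpowers_iff]
    constructor
    · rintro ⟨i, hi⟩; exact ⟨i, Subtype.ext hi⟩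
    · rintro ⟨i, hi⟩; exact ⟨i, congrArg Subtype.val hi⟩
  revert hn
  rw [h1]
  intro hn
  exact hX

/-! ### The theorem -/

section

variable {G : Type*} [Group G] {P : Subgroup G} {z y : G} {eta : G → L2}
  {pi : Subgroup.centralizer ({z} : Set G) →* Co1}

theorem main_aux [Finite G] (h : Chart P z eta pi) (hyP : y ∈ P) (hy : eta y = f0) {τ : G} (τz : τ * z * τ⁻¹ = y)
    (τy : τ * y * τ⁻¹ = z * y) {x : Subgroup.centralizer ({z} : Set G)} (hx : orderOf (x : G) = 3)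
    (hxx : pi x = xx) {c : G} (hc : c ∈ centralizer ({z, y} : Set G)) {i : ℤ} (hcx : c * (τ * x * τ⁻¹) * c⁻¹ = (x : G) ^ i) :
    IsOfThompsonType (XX (x : G)) := by
  have hx3 : (x : G) ^ 3 = 1 := by rw [← hx, pow_orderOf_eq_one]
  obtain ⟨d, hdx, hd⟩ := Fus.exists_comm h hyP hy τz τy (Or.inl rfl) hx hc hcx
  obtain ⟨v, hdv, hvP, hvz⟩ : ∃ v, d * z * d⁻¹ = v ∧ v ∈ P ∧ v ≠ z := by
    rcases hd with hd | hd
    · exact ⟨y, hd, hyP, AmalPerf.y_ne_z h hy⟩
    · refine ⟨z * y, hd, P.mul_mem h.large.z_mem hyP, ?_⟩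
      intro h1
      exact AmalPerf.y_ne h hyP hy (mul_eq_left.1 h1)
  obtain ⟨hf, hfr, ⟨e⟩, hO⟩ := facts (pi x) hxx
  obtain ⟨t, R, hR, hset, ⟨e'⟩⟩ := Fus.setting_of_fus h (p := 3) (by norm_num) (by decide)
    (x := x) (Subtype.ext hx3) hf (w := 4) (by norm_num) hfr hO hdx hdv hvP hvz
  exact ⟨t, R, hR, hset, ⟨e'.trans e⟩⟩

/-- the map of `C(z, y)` to `F` on an element of order 3 that is not 3-central -/
theorem exists_to_xx [Finite G] (h : Chart P z eta pi) (hyP : y ∈ P) (hy : eta y = f0)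
    {x : ↥(centralizer ({z, y} : Set G))} (hx : x ^ 3 = 1) (hx1 : x ≠ 1) (hnc : ¬ Cen x) :
    phi h hyP hy x ≠ 1 ∧ ∃ c : ↥(centralizer ({z, y} : Set G)), phi h hyP hy (c * x * c⁻¹) = j sig := by
  have h1 : phi h hyP hy x ≠ 1 := by
    intro h1
    have h2 := (phi_eq_one h hyP hy x).1 h1
    have h3 := MFive.pow_four h h2
    have h4 : (x : G) ^ 3 = 1 := congrArg Subtype.val hx
    exact hx1 (Subtype.ext (MFive.eq_one_of_pow (p := 3) (by decide) h4 h3))
  refine ⟨h1, ?_⟩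
  rcases exists_F (x := phi h hyP hy x) (by rw [← map_pow, hx, map_one]) h1 with ⟨S, hS, hxS, hc⟩ | ⟨f, hf⟩
  · exfalso
    exact hnc (SylLem.exists_sylow (by norm_num) (phi h hyP hy) (phi_surj h hyP hy)
      (not_dvd_ker h hyP hy (by norm_num) (by norm_num)) hS (n := 1) (by rw [pow_one, hx]) hxS hc)
  · obtain ⟨c, rfl⟩ := phi_surj h hyP hy f
    exact ⟨c, by rw [map_mul, map_mul, map_inv, hf]⟩

/-- **The centralizer of a subgroup of order 3 of `C(z, y)`, not 3-central.** -/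
theorem main [Finite G] (h : Chart P z eta pi) {y : G} (hyP : y ∈ P) (hyz : y ≠ z) (hconj : IsConj z y) (Y : Subgroup G)
    (hY : Y ≤ centralizer ({z, y} : Set G)) (hY3 : Nat.card ↥Y = 3)
    (hnc : ∀ P : Sylow 3 ↥(centralizer ({z, y} : Set G)), ¬ Y.subgroupOf (centralizer ({z, y} : Set G)) ≤
      (Subgroup.center ↥(P : Subgroup ↥(centralizer ({z, y} : Set G)))).map
        (P : Subgroup ↥(centralizer ({z, y} : Set G))).subtype)
    [hn : (Y.subgroupOf (centralizer (Y : Set G))).Normal] :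
    IsOfThompsonType (↥(centralizer (Y : Set G)) ⧸ Y.subgroupOf (centralizer (Y : Set G))) := by
  obtain ⟨g, hg⟩ := isConj_iff.1 hconj
  obtain ⟨s, τ, τz, τy, hs⟩ := AmalSideOf.exists_frame h hyP hyz ⟨g, hg⟩
  have h' := h.smul s
  have hyy : y * y = 1 := AmalPerf.y_sq h' hyP hs
  have hzy : z * y = y * z := (h.large.comm_z y hyP).symm
  have : Fact (Nat.Prime 3) := ⟨by norm_num⟩
  have hcyc : IsCyclic ↥Y := isCyclic_of_prime_card hY3
  obtain ⟨⟨x0, hx0Y⟩, hx0⟩ := hcyc.exists_generator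
  have hYx0 : Y = zpowers x0 := by
    apply le_antisymm
    · intro b hb
      obtain ⟨i, hi⟩ := Subgroup.mem_zpowers_iff.1 (hx0 ⟨b, hb⟩)
      exact ⟨i, congrArg Subtype.val hi⟩
    · rw [Subgroup.zpowers_le]; exact hx0Y
  have hx0o : orderOf x0 = 3 := by rw [← Nat.card_zpowers, ← hYx0, hY3]
  have hx03 : x0 ^ 3 = 1 := by rw [← hx0o, pow_orderOf_eq_one]
  have hx01 : x0 ≠ 1 := by
    rintro rfl
    rw [orderOf_one] at hx0o
    norm_num at hx0o
  have hx0L := hY hx0Y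
  let x1 : ↥(centralizer ({z, y} : Set G)) := ⟨x0, hx0L⟩
  have hnc1 : ¬ Cen x1 := by
    rintro ⟨R, hR, hc⟩
    refine hnc R ?_
    intro u hu
    have hu' : (u : G) ∈ Y := hu
    rw [hYx0] at hu'
    obtain ⟨i, hi⟩ := Subgroup.mem_zpowers_iff.1 hu'
    have hu1 : x1 ^ i = u := Subtype.ext hi
    have huR : u ∈ (R : Subgroup ↥(centralizer ({z, y} : Set G))) := by
      rw [← hu1]; exact Subgroup.zpow_mem _ hR i
    refine ⟨⟨u, huR⟩, ?_, rfl⟩
    rw [SetLike.mem_coe, Subgroup.mem_center_iff]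
    rintro ⟨r, hr⟩
    apply Subtype.ext
    show r * u = u * r
    rw [← hu1]
    have h3 : Commute r x1 := (hc r hr).symm
    exact (h3.zpow_right i).eq
  -- conjugation by `τ`
  let α : ↥(centralizer ({z, y} : Set G)) →* ↥(centralizer ({z, y} : Set G)) :=
    { toFun := fun u => ⟨τ * u * τ⁻¹, Five.conj_mem_pair τz τy hyy hzy (mem_pair.1 u.2).1 (mem_pair.1 u.2).2⟩
      map_one' := Subtype.ext (by show τ * 1 * τ⁻¹ = 1; group)
      map_mul' := fun a b => Subtype.ext (by show τ * (a * b : G) * τ⁻¹ = (τ * a * τ⁻¹) * (τ * b * τ⁻¹); group) }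
  have hα : Function.Injective α := by
    intro a b hab
    apply Subtype.ext
    have h1 : τ * (a : G) * τ⁻¹ = τ * b * τ⁻¹ := congrArg Subtype.val hab
    exact mul_left_cancel (mul_right_cancel h1)
  let αe : ↥(centralizer ({z, y} : Set G)) ≃* ↥(centralizer ({z, y} : Set G)) :=
    MulEquiv.ofBijective α (Finite.injective_iff_bijective.1 hα)
  have hnc2 : ¬ Cen (α x1) := fun hcen => hnc1 (Cen.of_equiv αe hcen)
  have hx13 : x1 ^ 3 = 1 := Subtype.ext hx03
  have hx11 : x1 ≠ 1 := fun h1 => hx01 (congrArg Subtype.val h1)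
  obtain ⟨hφ1, c1, hc1⟩ := exists_to_xx h' hyP hs hx13 hx11 hnc1
  obtain ⟨-, c2, hc2⟩ := exists_to_xx h' hyP hs (x := α x1) (by rw [← map_pow, hx13, map_one])
    (fun h1 => hx11 (hα (by rw [h1, map_one]))) hnc2
  -- fusion
  have hu : phi h' hyP hs ((c1⁻¹ * c2) * α x1 * (c1⁻¹ * c2)⁻¹) = phi h' hyP hs x1 := by
    have e1 : (c1⁻¹ * c2) * α x1 * (c1⁻¹ * c2)⁻¹ = c1⁻¹ * (c2 * α x1 * c2⁻¹) * c1 := by group
    rw [e1, map_mul, map_mul, hc2, ← hc1, ← map_mul, ← map_mul]
    congr 1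
    group
  obtain ⟨c3, i, hc3⟩ := exists_lift (by norm_num : (3 : ℕ).Prime) (phi h' hyP hs)
    (not_dvd_ker h' hyP hs (by norm_num) (by norm_num)) (x := x1) (u := (c1⁻¹ * c2) * α x1 * (c1⁻¹ * c2)⁻¹)
    (by rw [← Subgroup.orderOf_coe]; exact hx0o) hφ1
    (by rw [conj_pow, ← map_pow, hx13, map_one, mul_one, mul_inv_cancel]) hu
  let c : ↥(centralizer ({z, y} : Set G)) := c3 * (c1⁻¹ * c2)
  have hc : (c : G) * (τ * x0 * τ⁻¹) * (c : G)⁻¹ = x0 ^ i := by
    have e2 : c * α x1 * c⁻¹ = x1 ^ i := by rw [← hc3]; simp only [c]; group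
    exact congrArg Subtype.val e2
  -- change the chart
  let f : ↥F := phi h' hyP hs c1
  have h'' := h'.smul (f : Co1)
  have hy'' : (f : Co1) • (s • eta y) = f0 := by
    rw [hs]
    exact CoFrameL2.smul_f0 f.2
  have hpi : ((MulAut.conj (f : Co1)).toMonoidHom.comp ((MulAut.conj s).toMonoidHom.comp pi)) (toZ x1) = xx := by
    have e3 := congrArg Subtype.val hc1
    rw [map_mul, map_mul, map_inv] at e3
    exact e3
  have hmain := main_aux h'' hyP hy'' τz τy (x := toZ x1) hx0o hpi c.2 hc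
  have hC : centralizer (Y : Set G) = centralizer ({x0} : Set G) := by
    rw [hYx0]
    ext g
    rw [Subgroup.mem_centralizer_iff, mem_centralizer_singleton_iff]
    constructor
    · intro h9
      exact (h9 x0 (Subgroup.mem_zpowers _)).symm
    · rintro h9 _ ⟨m, rfl⟩
      have h10 : Commute g x0 := h9
      exact (h10.zpow_right m).eq.symm
  exact th_of_zx x0 _ hC Y hYx0 hmain

end

end Cfsg.Agent.H819.Eight
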