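import Cfsg.Agent.H819.Syl3
import Cfsg.Agent.LThreeMB.Fus
import Cfsg.Agent.MonsterU.CoFrameF

/-!
# The centre of the Sylow 3-subgroup of `M24` and its fixed vectors (helper819)

`center` : an element of the Sylow 3-subgroup `SP` commuting with `SP` fixes the six points 0, 12, 13, 14, 17, 22.
`fr_large` : an element of order 3 of `M24` fixing six points has more than `16 ^ 2` fixed vectors on `Λ/2Λ`.
-/

set_option autoImplicit false
set_option maxRecDepth 10000

namespace Cfsg.Agent.H819.Syl3C

open Cfsg Cfsg.Agent.KFacts.MM.El Cfsg.Agent.SporadicA.GolayBase Cfsg.Agent.SporadicA.GolayPerm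
open Cfsg.Agent.H819.Syl3
open Cfsg.Spor Cfsg.Agent.MonsterU Cfsg.Agent.MonsterU.Lam2 Cfsg.Agent.MonsterU.CoFrame Cfsg.Agent.MonsterU.CoFrameL2
open Cfsg.Agent.MonsterU.CoFrameAct (duad pair_duad perm_coe duad_coe duad_mem)
open Cfsg.Agent.LThreeMB (fr fr_eq_sq)
open Cfsg.Agent.CoOneType
open Cfsg.Agent.SporadicA.Co0Mono (permCo0)
open Cfsg.Agent.SporadicA.Co1Simple (perm_mem_N)

/-! ### The centre -/

theorem cent_L : (L.all fun l => (!(weq (B :: l) (l ++ [B]))) || ((!(weq (C :: l) (l ++ [C]))) ||
    (weq l [] || (weq l [A] || weq l [A, A])))) = true := by decide +kernel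

/-- the six fixed points -/
def fxp : List ℕ := [0, 12, 13, 14, 17, 22]

theorem fxp_A : (fxp.all fun i => Nat.beq (papp A i) i) = true := by decide +kernel

theorem okA : okl [A] = true := okl_of fun g hg => by
  simp only [List.mem_cons, List.not_mem_nil, or_false] at hg
  subst hg
  exact List.mem_cons_self

theorem val_A {i : ℕ} (hi : i ∈ fxp) : val (pm A) i = i := by
  have h1 := Nat.eq_of_beq_eq_true (List.all_eq_true.1 fxp_A i hi)
  have h2 : i < 24 := by
    simp only [fxp, List.mem_cons, List.not_mem_nil, or_false] at hi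
    omega
  rw [val_pm (okABC List.mem_cons_self).1 h2, h1]

theorem B_mem' : pm B ∈ SP := by
  obtain ⟨m, hm, h⟩ := gen_mul (g := B) (by simp) (l := []) List.mem_cons_self
  exact ⟨m, hm, by rw [h, pr_nil, mul_one]⟩

theorem C_mem' : pm C ∈ SP := by
  obtain ⟨m, hm, h⟩ := gen_mul (g := C) (by simp) (l := []) List.mem_cons_self
  exact ⟨m, hm, by rw [h, pr_nil, mul_one]⟩

/-- **The centre of the Sylow 3-subgroup.** -/
theorem center {g : Equiv.Perm GolayPt} (hg : g ∈ SP) (hc : ∀ s ∈ SP, g * s = s * g) {i : ℕ} (hi : i ∈ fxp) :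
    val g i = i := by
  obtain ⟨l, hl, rfl⟩ := hg
  have h1 := okl_L hl
  have hi' : i < 24 := by
    simp only [fxp, List.mem_cons, List.not_mem_nil, or_false] at hi
    omega
  have hB : okl [B] = true := okl_of fun g hg => by
    simp only [List.mem_cons, List.not_mem_nil, or_false] at hg
    subst hg
    simp
  have hC : okl [C] = true := okl_of fun g hg => by
    simp only [List.mem_cons, List.not_mem_nil, or_false] at hg
    subst hg
    simp
  have h := List.all_eq_true.1 cent_L l hl
  have e1 : weq (B :: l) (l ++ [B]) = true := by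
    rw [weq_iff (okl_cons' (okABC (by simp)).1 h1) (okl_append h1 hB), pr_cons, pr_append, pr_one]
    exact (hc _ B_mem').symm
  have e2 : weq (C :: l) (l ++ [C]) = true := by
    rw [weq_iff (okl_cons' (okABC (by simp)).1 h1) (okl_append h1 hC), pr_cons, pr_append, pr_one]
    exact (hc _ C_mem').symm
  rw [e1, e2] at h
  simp only [Bool.not_true, Bool.false_or, Bool.or_eq_true] at h
  rcases h with h | h | h
  · rw [pr_of_weq h1 (by rfl) h, pr_nil, val_one hi']
  · rw [pr_of_weq h1 okA h, pr_one, val_A hi]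
  · rw [pr_of_weq h1 (okl_append okA okA) h, pr_append, pr_one, val_mul, val_A hi, val_A hi]

/-! ### Fixed vectors -/

/-- the pairs of fixed points -/
def prs : List (ℕ × ℕ) := [(0, 12), (0, 13), (0, 14), (0, 17), (0, 22), (12, 13), (12, 14), (12, 17), (12, 22),
  (13, 14), (13, 17), (13, 22), (14, 17), (14, 22), (17, 22)]

/-- the pair `k` -/
def pk (k : Fin 15) : ℕ × ℕ := prs.getD k (0, 0)

theorem pk_mem : ∀ k : Fin 15, (pk k).1 ∈ fxp ∧ (pk k).2 ∈ fxp := by decide

/-- the word `t` -/
noncomputable def cw (t : ℕ) : golayCode := ⟨word (enc (2 ^ t)), enc_mem _⟩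

/-- a separating word for two pairs -/
theorem sep : ∀ k l : Fin 15, k ≠ l → ∃ t : Fin 12, ((enc (2 ^ (t : ℕ))).testBit (pk k).1 ^^
    (enc (2 ^ (t : ℕ))).testBit (pk k).2) ≠ ((enc (2 ^ (t : ℕ))).testBit (pk l).1 ^^
    (enc (2 ^ (t : ℕ))).testBit (pk l).2) := by decide +kernel

theorem sep0 : ∀ k : Fin 15, ∃ t : Fin 12, ((enc (2 ^ (t : ℕ))).testBit (pk k).1 ^^
    (enc (2 ^ (t : ℕ))).testBit (pk k).2) = true := by decide +kernel

theorem lt_of_fxp {i : ℕ} (hi : i ∈ fxp) : i < 24 := by
  simp only [fxp, List.mem_cons, List.not_mem_nil, or_false] at hi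
  omega

theorem cw_apply (t : ℕ) {i : ℕ} (hi : i < 24) : (cw t).1 (pt i) = if (enc (2 ^ t)).testBit i then 1 else 0 := by
  show word (enc (2 ^ t)) (pt i) = _
  rw [word_apply, idx_pt hi]

/-- the vector of the pair `k` -/
noncomputable def dv (k : Fin 15) : leechLattice := duad (pt (pk k).1) (pt (pk k).2)

theorem pair_dv (k : Fin 15) (t : ℕ) : pair (dv k) (cw t) =
    if ((enc (2 ^ t)).testBit (pk k).1 ^^ (enc (2 ^ t)).testBit (pk k).2) then 1 else 0 := by
  rw [dv, pair_duad, cw_apply t (lt_of_fxp (pk_mem k).1), cw_apply t (lt_of_fxp (pk_mem k).2)]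
  cases (enc (2 ^ t)).testBit (pk k).1 <;> cases (enc (2 ^ t)).testBit (pk k).2 <;> decide

theorem ite_inj {a b : Bool} (h : (if a then (1 : ZMod 2) else 0) = if b then 1 else 0) : a = b := by
  cases a <;> cases b <;> first | rfl | (exact absurd h (by decide))

theorem dv_inj {k l : Fin 15} (h : cl (dv k) = cl (dv l)) : k = l := by
  by_contra hne
  obtain ⟨t, ht⟩ := sep k l hne
  have h1 := pair_cong ((cong_iff_cl _ _).2 h) (cw t)
  rw [pair_dv, pair_dv] at h1
  exact ht (ite_inj h1)

theorem dv_not_mem (k : Fin 15) : cl (dv k) ∉ W1 := by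
  intro h
  obtain ⟨t, ht⟩ := sep0 k
  have h1 := pair_V1 (cl_mem_W1.1 h) (cw t)
  rw [pair_dv, ht] at h1
  exact absurd h1 (by decide)

theorem duad_perm (σ : M24) {i j : GolayPt} (hi : (σ : Equiv.Perm GolayPt) i = i)
    (hj : (σ : Equiv.Perm GolayPt) j = j) : permCo0 σ • duad i j = duad i j := by
  apply Subtype.ext
  funext k
  have hk : ∀ a : GolayPt, (σ : Equiv.Perm GolayPt) a = a → ((σ : Equiv.Perm GolayPt).symm k = a ↔ k = a) := by
    intro a ha
    rw [Equiv.symm_apply_eq, ha]
  rw [perm_coe, duad_coe, duad_coe]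
  simp only [hk i hi, hk j hj]

/-- the seventeen vectors -/
noncomputable def fv (k : Option (Option (Fin 15))) : L2 :=
  match k with
  | none => 0
  | some none => f0
  | some (some k) => cl (dv k)

theorem fv_inj : Function.Injective fv := by
  intro a b h
  have h0 : (0 : L2) ∈ W1 := W1.zero_mem
  match a, b, h with
  | none, none, _ => rfl
  | none, some none, h => exact absurd h.symm f0_ne
  | none, some (some l), h => exact absurd (by rw [← show (0 : L2) = cl (dv l) from h]; exact h0) (dv_not_mem l)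
  | some none, none, h => exact absurd h f0_ne
  | some none, some none, _ => rfl
  | some none, some (some l), h =>
    exact absurd (by rw [← show f0 = cl (dv l) from h]; exact f0_mem_W1) (dv_not_mem l)
  | some (some k), none, h => exact absurd (by rw [show cl (dv k) = (0 : L2) from h]; exact h0) (dv_not_mem k)
  | some (some k), some none, h =>
    exact absurd (by rw [show cl (dv k) = f0 from h]; exact f0_mem_W1) (dv_not_mem k)
  | some (some k), some (some l), h => rw [dv_inj h]

theorem finite_L2 : Finite L2 := Nat.finite_of_card_ne_zero (by rw [card_L2]; norm_num)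

/-- **An element of order 3 of `M24` that fixes the six points.** -/
theorem fr_large (σ : M24) (h3 : σ ^ 3 = 1) (hfx : ∀ i ∈ fxp, val (σ : Equiv.Perm GolayPt) i = i) :
    17 ^ 2 ≤ fr (CoOneE.pr (permCo0 σ)) := by
  have hF : CoOneE.pr (permCo0 σ) ∈ F := pr_mem_F (perm_mem_N σ)
  have hs3 : CoOneE.pr (permCo0 σ) ^ 3 = 1 := by rw [← map_pow, ← map_pow, h3, map_one, map_one]
  rw [fr_eq_sq hs3 hF]
  apply Nat.pow_le_pow_left
  have hfix : ∀ k, CoOneE.pr (permCo0 σ) • fv k = fv k := by
    intro k
    match k with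
    | none => exact smul_zero _
    | some none => exact smul_f0 hF
    | some (some k) =>
      show CoOneE.pr (permCo0 σ) • cl (dv k) = cl (dv k)
      rw [pr_smul_cl, dv, duad_perm σ]
      · have := hfx _ (pk_mem k).1
        rw [← pt_val, this]
      · have := hfx _ (pk_mem k).2
        rw [← pt_val, this]
  have hW : ∀ k, fv k ∈ W12 := by
    intro k
    match k with
    | none => exact W12.zero_mem
    | some none => exact W1_le_W12 f0_mem_W1
    | some (some k) => exact cl_mem_W12.2 (duad_mem _ _)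
  have hfin := finite_L2
  have h1 : Function.Injective (fun k => (⟨fv k, hW k, hfix k⟩ : {v : L2 // v ∈ W12 ∧ CoOneE.pr (permCo0 σ) • v = v})) := by
    intro a b hab
    exact fv_inj (congrArg Subtype.val hab)
  have h2 := Nat.card_le_card_of_injective _ h1
  have h3 : Nat.card (Option (Option (Fin 15))) = 17 := by
    rw [Nat.card_eq_fintype_card]
    rfl
  rwa [h3] at h2

end Cfsg.Agent.H819.Syl3C
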